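import Cfsg.Agent.Spor.MGT3
import Cfsg.Agent.Chev.CoreAll
import Cfsg.Agent.Chev.CoreAut

/-! Multiplication of a bit-sliced matrix in characteristic three by a root element. -/

set_option autoImplicit false

namespace Cfsg.Lib.ThT.RM

open Cfsg.Lib.Spor.Bulk Cfsg.Lib.Spor.MG Cfsg.Lib.Spor.MG.T3 Cfsg.Lib.Chev Cfsg.Lie Matrix

/-- sum of two vectors -/
noncomputable def add3 (n a b : ℕ) : ℕ :=
  seq a (seq b ((fun p m u v => (fun t => code n (Nat.xor (Nat.lor m v) t) (Nat.xor (Nat.lor p u) t))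
    (Nat.xor (Nat.lor p v) (Nat.lor m u))) (pP n a) (pM n a) (pP n b) (pM n b)))

/-- a multiple of a column -/
noncomputable def colv (n p m j s : ℕ) : ℕ :=
  Nat.rec 0 (fun s' _ => Nat.rec (code n (Nat.shiftRight p (Nat.mul j n)) (Nat.shiftRight m (Nat.mul j n)))
    (fun _ _ => code n (Nat.shiftRight m (Nat.mul j n)) (Nat.shiftRight p (Nat.mul j n))) s') s

/-- the coefficient `c t^k` modulo three -/
def cf (t k : ℕ) (c : ℤ) : ℕ := Int.toNat (Int.emod (Int.mul c (Int.ofNat (Nat.pow t k))) 3)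

/-- a linear combination of columns -/
noncomputable def comb (n p m t : ℕ) (L : List (ℕ × ℕ × ℤ)) : ℕ :=
  List.rec 0 (fun a L' r => List.rec (colv n p m a.1 (cf t a.2.1 a.2.2))
    (fun _ _ _ => add3 n (colv n p m a.1 (cf t a.2.1 a.2.2)) r) L') L

/-- assembling columns -/
noncomputable def packC (n : ℕ) (f : ℕ → ℕ) (fin : ℕ → ℕ → ℕ) (k : ℕ) : ℕ → ℕ → ℕ :=
  Nat.rec fin (fun j r p q => seq p (seq q (r (Nat.lor (Nat.shiftLeft p n) (Nat.land (f j) (ones n)))
    (Nat.lor (Nat.shiftLeft q n) (Nat.land (Nat.shiftRight (f j) n) (ones n)))))) k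

/-- right multiplication by `x_r(t)` -/
noncomputable def rmul (T : Core.Tab) (n a r t : ℕ) : ℕ :=
  seq a ((fun p m row => seq row (packC n (fun b => comb n p m t (Core.colF T r row b))
    (code (Nat.mul n n)) n 0 0)) (Nat.land a (ones (Nat.mul n n)))
    (Nat.land (Nat.shiftRight a (Nat.mul n n)) (ones (Nat.mul n n))) (Core.nth T.rows r))

/-- right multiplication by a word in root elements -/
noncomputable def rw (T : Core.Tab) (n : ℕ) (W : List ℕ) : ℕ → ℕ :=
  List.rec (fun a => a) (fun l _ r a => r (rmul T n a (Nat.shiftRight l 1) (Nat.succ (Nat.land l 1)))) W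

variable {R : Type} [CommRing R]

theorem testBit_pP' (S k a : ℕ) : (pP S a).testBit k = (a.testBit k && !a.testBit (S + k)) := by
  show (a ^^^ (a &&& (a >>> S))).testBit k = _
  simp only [Nat.testBit_and, Nat.testBit_xor, Nat.testBit_shiftRight]
  cases a.testBit k <;> cases a.testBit (S + k) <;> rfl

theorem dis_pP (S a : ℕ) : Dis S (pP S a) (pM S a) := fun k _ => by
  rw [testBit_pP', testBit_pM]
  cases a.testBit k <;> cases a.testBit (S + k) <;> rfl

theorem val_pP (S a k : ℕ) : val R (pP S a) (pM S a) k = ent R S a k := by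
  simp only [val, ent, bitR, testBit_pP', testBit_pM]
  cases a.testBit k <;> cases a.testBit (S + k) <;> simp

theorem ent_add3 (h3 : (3 : R) = 0) {n k : ℕ} (hk : k < n) (a b : ℕ) :
    ent R n (add3 n a b) k = ent R n a k + ent R n b k := by
  rw [add3, seq_eq, seq_eq, ← val_pP n a, ← val_pP n b, ← (add_step h3 (dis_pP n a) (dis_pP n b)).2 k hk]
  exact ent_code hk _ _

theorem ent_colv (h3 : (3 : R) = 0) {n k : ℕ} (hk : k < n) (p m j t i : ℕ) (c : ℤ) :
    ent R n (colv n p m j (cf t i c)) k = (c * (t : R) ^ i) * val R p m (j * n + k) := by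
  have h1 : ((cf t i c : ℕ) : ℤ) = (c * (t ^ i : ℕ)) % 3 := Int.toNat_of_nonneg (Int.emod_nonneg _ (by norm_num))
  have h2 : ((cf t i c : ℕ) : R) = c * (t : R) ^ i := by
    have := congrArg (Int.cast (R := R)) (Int.emod_add_mul_ediv (c * (t ^ i : ℕ)) 3)
    rw [← h1] at this
    push_cast at this
    rw [← this, h3, zero_mul, add_zero]
  have h4 : cf t i c < 3 := by have := Int.emod_lt_of_pos (c * (t ^ i : ℕ)) (show (0 : ℤ) < 3 by norm_num); omega
  rw [← h2]
  generalize cf t i c = s at h4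
  have h5 : ∀ x y, val R (Nat.shiftRight x (j * n)) (Nat.shiftRight y (j * n)) k = val R x y (j * n + k) :=
    fun x y => by
      show bitR R (x >>> (j * n)) k - bitR R (y >>> (j * n)) k = _
      simp only [val, bitR, Nat.testBit_shiftRight]
  interval_cases s
  · simp [colv, ent, bitR]
  · rw [Nat.cast_one, one_mul, ← h5]; exact ent_code hk _ _
  · refine (ent_code hk _ _).trans ((h5 _ _).trans ?_)
    simp only [val]
    push_cast
    linear_combination (bitR R m (j * n + k) - bitR R p (j * n + k)) * h3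

theorem ent_comb (h3 : (3 : R) = 0) {n k : ℕ} (hk : k < n) (p m t : ℕ) (L : List (ℕ × ℕ × ℤ)) :
    ent R n (comb n p m t L) k =
      (L.map fun a => (a.2.2 * (t : R) ^ a.2.1) * val R p m (a.1 * n + k)).sum := by
  induction L with
  | nil => simp [comb, ent, bitR]
  | cons a L ih =>
    rw [List.map_cons, List.sum_cons, ← ih, ← ent_colv h3 hk]
    cases L with
    | nil => exact (add_eq_left.2 (by simp [comb, ent, bitR])).symm
    | cons b L => exact ent_add3 h3 hk _ _

theorem testBit_step {n x : ℕ} (p i : ℕ) {k : ℕ} (hk : k < n) :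
    (Nat.lor (Nat.shiftLeft p n) (Nat.land x (ones n))).testBit (i * n + k) =
      if i = 0 then x.testBit k else p.testBit ((i - 1) * n + k) := by
  show ((p <<< n) ||| (x &&& ones n)).testBit _ = _
  rcases i with _ | i
  · simp [Nat.testBit_shiftLeft, testBit_ones, hk]
  · have h1 : n ≤ (i + 1) * n + k := by nlinarith
    have h2 : (i + 1) * n + k - n = i * n + k := by rw [Nat.succ_mul]; omega
    simp [Nat.testBit_shiftLeft, testBit_ones, h1, h2]

theorem packC_spec (n : ℕ) (f : ℕ → ℕ) (fin : ℕ → ℕ → ℕ) (j p q : ℕ) :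
    ∃ p' q', packC n f fin j p q = fin p' q' ∧ ∀ i, ∀ k < n, val R p' q' (i * n + k) =
      if i < j then ent R n (f i) k else val R p q ((i - j) * n + k) := by
  induction j generalizing p q with
  | zero => exact ⟨p, q, rfl, by simp⟩
  | succ j ih =>
    obtain ⟨p', q', e, h⟩ := ih (Nat.lor (Nat.shiftLeft p n) (Nat.land (f j) (ones n)))
      (Nat.lor (Nat.shiftLeft q n) (Nat.land (Nat.shiftRight (f j) n) (ones n)))
    refine ⟨p', q', (seq_eq _ _).trans ((seq_eq _ _).trans e), fun i k hk => ?_⟩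
    rw [h i k hk]
    rcases lt_trichotomy i j with h1 | rfl | h1
    · rw [if_pos h1, if_pos (by omega)]
    · rw [if_neg (lt_irrefl _), if_pos (by omega), val, bitR, bitR, testBit_step _ _ hk, testBit_step _ _ hk,
        Nat.sub_self, if_pos rfl, if_pos rfl]
      show _ - (if ((f i) >>> n).testBit k then _ else _) = _
      rw [Nat.testBit_shiftRight]
      rfl
    · rw [if_neg (by omega), if_neg (by omega), val, bitR, bitR, testBit_step _ _ hk, testBit_step _ _ hk,
        if_neg (show ¬ i - j = 0 by omega), if_neg (show ¬ i - j = 0 by omega)]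
      rfl

variable {F : Type} [Field F] {D : ChevalleyDatum} (h3 : (3 : F) = 0) {n : ℕ} (e : D.Idx ≃ Fin n)
  (he : ∀ j i, Core.eB D F j i = if (e i : ℕ) = j then 1 else 0)
include he

theorem dec_eB (a j : ℕ) (i : D.Idx) : ((impl h3 e).dec a *ᵥ Core.eB D F j) i =
    val F (Nat.land a (ones (n * n))) (Nat.land (Nat.shiftRight a (n * n)) (ones (n * n))) (j * n + e i) := by
  show ∑ x, ent F (n * n) a (e x * n + e i) * _ = bitR F (a &&& _) _ - bitR F ((a >>> (n * n)) &&& _) _
  simp only [he, bitR, Nat.testBit_and, testBit_ones, Nat.testBit_shiftRight]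
  by_cases hj : j < n
  · rw [Finset.sum_eq_single (e.symm ⟨j, hj⟩) (fun x _ hx => by
      rw [if_neg fun h => hx (by rw [Equiv.eq_symm_apply]; exact Fin.ext h), mul_zero]) (by simp)]
    simp [idx_lt hj (e i).2, ent, bitR]
  · have h1 : ¬ j * n + e i < n * n := by nlinarith [not_lt.1 hj, Nat.zero_le (e i : ℕ)]
    rw [Finset.sum_eq_zero fun x _ => by rw [if_neg (by have := (e x).2; omega), mul_zero]]
    simp [h1]

theorem dec_rmul {T : Core.Tab} (hT : T.Link D) (h2 : D.nroots % 2 = 0) (hn : D.nroots + D.rank = n)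
    (a : ℕ) {r : ℕ} (hr : r < T.n) (t : ℕ) :
    (impl h3 e).dec (rmul T n a r t) = (impl h3 e).dec a * D.x F r t := by
  refine Core.mat_ext_eB fun b hb => funext fun i => ?_
  rw [hn] at hb
  obtain ⟨p', q', e1, h1⟩ := packC_spec (R := F) n (fun b => comb n (Nat.land a (ones (n * n)))
    (Nat.land (Nat.shiftRight a (n * n)) (ones (n * n))) t (Core.colF T r (Core.nth T.rows r) b))
    (code (n * n)) n 0 0
  have e2 : rmul T n a r t = code (n * n) p' q' := (seq_eq _ _).trans ((seq_eq _ _).trans e1)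
  have e3 : ((impl h3 e).dec (code (n * n) p' q') *ᵥ Core.eB D F b) i = val F p' q' (b * n + e i) := by
    rw [dec_eB h3 e he, ← ent_code (idx_lt hb (e i).2) p' q']
    show bitR F (_ &&& _) _ - bitR F ((_ >>> _) &&& _) _ = _
    simp [bitR, ent, testBit_ones, idx_lt hb (e i).2, Nat.testBit_shiftRight]
  rw [e2, e3, h1 _ _ (e i).2, if_pos hb, ent_comb h3 (e i).2, ← mulVec_mulVec,
    Core.colF_sound hT h2 hr]
  induction Core.colF T r (Core.nth T.rows r) b with
  | nil => simp
  | cons x L ih =>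
    rw [List.map_cons, List.sum_cons, ih, Core.evalC_cons, mulVec_add, mulVec_smul, Pi.add_apply,
      Pi.smul_apply, dec_eB h3 e he, smul_eq_mul]

theorem dec_rw {T : Core.Tab} (hT : T.Link D) (C : Core.Cert D) (Rt : RootData D)
    (h2 : D.nroots % 2 = 0) (hn : D.nroots + D.rank = n) {W : List ℕ}
    (hW : allL (fun l => Nat.blt (Nat.shiftRight l 1) T.n) W = true) (a : ℕ) :
    ∃ g ∈ D.group F, (impl h3 e).dec (rw T n W a) = (impl h3 e).dec a * g := by
  induction W generalizing a with
  | nil => exact ⟨1, one_mem _, (mul_one _).symm⟩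
  | cons l W ih =>
    obtain ⟨g, hg, e1⟩ := ih (band_right hW) (rmul T n a (Nat.shiftRight l 1) (Nat.succ (Nat.land l 1)))
    refine ⟨_, mul_mem (Core.xGL_mem_group (Nat.shiftRight l 1) ((Nat.succ (Nat.land l 1) : ℕ) : F)) hg,
      e1.trans ?_⟩
    rw [dec_rmul h3 e he hT h2 hn _ (Nat.blt_eq ▸ band_left hW), Units.val_mul, C.coe_xGL Rt, mul_assoc]

/-- Membership in the Chevalley group from a factorisation into root elements. -/
theorem inS_of_rw {T : Core.Tab} (hT : T.Link D) (C : Core.Cert D) (Rt : RootData D)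
    (h2 : D.nroots % 2 = 0) (hn : D.nroots + D.rank = n) (W W' : List ℕ) (a : ℕ)
    (h : band (band (allL (fun l => Nat.blt (Nat.shiftRight l 1) T.n) W)
      (allL (fun l => Nat.blt (Nat.shiftRight l 1) T.n) W'))
      (Nat.beq (rw T n W a) (rw T n W' (ops n).one)) = true) : (impl h3 e).InS (D.group F) a := by
  obtain ⟨g, hg, e1⟩ := dec_rw h3 e he hT C Rt h2 hn (band_left (band_left h)) a
  obtain ⟨g', hg', e2⟩ := dec_rw h3 e he hT C Rt h2 hn (band_right (band_left h)) (ops n).one
  rw [Nat.eq_of_beq_eq_true (band_right h), e2, Impl.dec_one, one_mul] at e1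
  exact ⟨g' * g⁻¹, mul_mem hg' (inv_mem hg), by rw [Units.val_mul, e1, Units.mul_inv_cancel_right]⟩

end Cfsg.Lib.ThT.RM
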