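import Cfsg.Agent.ThT.M248Main
import Cfsg.Agent.ThT.E8Mul

/-! The image of the Thompson group lies in the Chevalley group `E₈(3)`. -/

set_option autoImplicit false
set_option maxRecDepth 100000
set_option Elab.async false

namespace Cfsg.Lib.ThT.M248

open Cfsg.Lib.Spor.MG Cfsg.Lib.Spor.Bulk Cfsg.Lib.Spor Cfsg.Lib.Chev Cfsg.Lie

noncomputable def eT : List ℕ := [O.mul l6 l2, O.mul l8 l4]

def eW0 : List ℕ := [58,71,40,479,475,473,468,464,463,461,446,456,444,437,434,453,432,427,439,424,406,428,419,404,421,399,396,410,394,392,384,367,383,381,323,379,375,362,360,320,372,359,355,319,316,371,353,346,315,351,345,313,303,348,343,334,306,292,281,340,333,290,278,331,288,276,267,258,295,265,284,273,254,248,245,282,271,260,247,242,241]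

def eV0 : List ℕ := [154,196,227,233,238,231,234,185,193,214,228,191,202,221,138,147,181,201,131,136,145,173,199,111,129,143,171,177,127,165,168,106,121,161,90,104,116,119,71,88,97,98,115,85,94,112,79,93,77,75,48,54,72,27,38,53,36,44,35,42,33,18,31,16,29,13,15,11,7,5]

theorem eb0 : band (band (allL (fun l => Nat.blt (Nat.shiftRight l 1) Core.tabE8.n) eW0)
    (allL (fun l => Nat.blt (Nat.shiftRight l 1) Core.tabE8.n) eV0))
    (Nat.beq (RM.rw Core.tabE8 248 eW0 (pl eT 12)) (RM.rw Core.tabE8 248 eV0 (T3.ops 248).one)) = true := by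
  decide +kernel

def eW1 : List ℕ := [64,74,147,468,462,460,449,446,456,445,443,452,433,438,425,406,428,419,405,403,399,414,412,397,393,384,367,391,382,380,364,379,375,362,360,321,359,355,371,356,346,315,311,350,345,337,312,308,303,348,300,293,280,340,333,305,298,269,338,296,276,267,259,328,294,274,257,250,327,284,262,248,325,260,252,242]

def eV1 : List ℕ := [154,197,219,237,239,152,195,216,235,192,204,215,228,148,203,212,220,146,188,136,173,179,199,129,167,170,176,109,123,132,165,106,120,161,162,91,104,116,159,88,99,115,85,94,112,67,79,82,92,58,63,76,50,56,74,40,48,54,73,26,36,44,34,43,20,30,17,15,2,0]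

theorem eb1 : band (band (allL (fun l => Nat.blt (Nat.shiftRight l 1) Core.tabE8.n) eW1)
    (allL (fun l => Nat.blt (Nat.shiftRight l 1) Core.tabE8.n) eV1))
    (Nat.beq (RM.rw Core.tabE8 248 eW1 (pl eT 13)) (RM.rw Core.tabE8 248 eV1 (T3.ops 248).one)) = true := by
  decide +kernel

def eW2 : List ℕ := [126,96,154,479,476,472,471,469,466,462,450,461,448,444,443,435,452,440,426,418,420,416,412,396,387,410,395,393,385,409,390,382,388,378,375,362,320,376,373,358,319,316,370,357,353,314,350,345,336,349,343,334,306,301,292,332,299,269,297,276,267,329,295,287,265,256,251,326,254,248,245,270,253,246,243]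

def eV2 : List ℕ := [219,233,236,239,152,194,206,216,225,230,234,185,204,215,228,141,149,183,190,202,220,138,175,181,210,136,145,172,178,187,199,111,129,135,177,109,169,106,120,90,100,116,118,159,71,97,68,84,86,112,64,78,58,57,60,75,40,48,54,73,26,47,53,25,37,45,23,35,21,32,19,8,0]

theorem eb2 : band (band (allL (fun l => Nat.blt (Nat.shiftRight l 1) Core.tabE8.n) eW2)
    (allL (fun l => Nat.blt (Nat.shiftRight l 1) Core.tabE8.n) eV2))
    (Nat.beq (RM.rw Core.tabE8 248 eW2 (pl eT 10)) (RM.rw Core.tabE8 248 eV2 (T3.ops 248).one)) = true := by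
  decide +kernel

theorem ee0 : Nat.beq (O.extRun (pl eT) [1901940241221548581879302684678,464340879204479634247876610,7320136537186312,1787142709252,86027,53255,69641,0,5323403938853548015839953784915714053]
    (msk [12,13,10])) 16373 = true := by decide +kernel

theorem ee1 : Nat.beq (O.extRun (pl eT) [1991721874638887790732971699375946126627659398704669489142908425533258111255149897883651,412652486657]
    16373) 16383 = true := by decide +kernel

/-- The numbering of the Chevalley basis. -/
def eE : chevE8.Idx ≃ Fin 248 :=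
  ((Equiv.sumComm _ _).trans finSumFinEquiv).trans (finCongr (by decide +kernel))

theorem eB_eq (j : ℕ) (i : chevE8.Idx) :
    Core.eB chevE8 (ZMod 3) j i = if (eE i : ℕ) = j then 1 else 0 := by
  unfold Core.eB
  rcases i with i | i
  · show _ = if chevE8.nroots + (i : ℕ) = j then _ else _
    split_ifs with h1 h2 h2
    · omega
    · rfl
    · exact if_pos (by omega)
    · exact if_neg (by omega)
  · show _ = if (i : ℕ) = j then _ else _
    split_ifs with h1 h2 h2
    · exact if_pos h2
    · exact if_neg h2
    · omega
    · rfl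

theorem range_le_E8 : (f eE).range ≤ chevE8.group (ZMod 3) := by
  obtain ⟨C, Rt⟩ := (Core.cert_root_of_mem (D := chevE8) (by simp)).some
  have key := RM.inS_of_rw h3 eE eB_eq (Core.Tab.link_of_chk _ Core.linkE8) C Rt (by decide +kernel)
    (by decide +kernel)
  have h0 : (I eE).AllS (pl eT) (chevE8.group (ZMod 3)) (msk [12, 13, 10]) := fun i hi => by
    have := mem_of_testBit_msk hi
    simp only [List.mem_cons, List.not_mem_nil, or_false] at this
    rcases this with rfl | rfl | rfl
    exacts [key _ _ _ eb0, key _ _ _ eb1, key _ _ _ eb2]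
  have h1 := (h0.ext _ ee0).ext _ ee1
  refine range_le eE fun l hl => pl_lt eT hl ▸ h1 l ?_
  revert l
  decide

end Cfsg.Lib.ThT.M248

namespace Cfsg.Lib.ThT

/-- A homomorphism from the Thompson group to `E₈(3)` with large image. -/
theorem exists_hom_E8 : ∃ f : Cfsg.Spor.Th →* Cfsg.Lie.chevE8.group (ZMod 3),
    90745943887872000 ∣ Nat.card f.range := by
  refine ⟨(M248.f M248.eE).codRestrict _ fun x => M248.range_le_E8 ⟨x, rfl⟩, ?_⟩
  rw [← Subgroup.card_map_of_injective (Subgroup.subtype_injective _), ← MonoidHom.range_comp]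
  exact M248.dvd_card _

end Cfsg.Lib.ThT
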