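import Cfsg.Agent.ThT.MCert
import Cfsg.Agent.ThT.Alpha

/-! Groups of Thompson type: the 2-part of the Schur multiplier. -/

set_option autoImplicit false

namespace Cfsg.Lib.ThT

open Subgroup Equiv Cfsg.Lib.Spor.Bulk Cfsg.Lib.Spor.MG Cfsg.Lib.Local Cfsg.Lib.Known Cfsg.Lib.Chev
open scoped Pointwise

/-- the polycyclic generators of a Sylow 2-subgroup -/
noncomputable def AW (i : ℕ) : List ℕ := getN [] [[], [72], [361, 523, 513, 523, 525, 517, 525],
  [359, 525, 512, 524, 514, 524, 518], [311, 521, 512, 521, 525, 517, 525],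
  [389, 512, 524, 513, 522, 514, 522, 525, 516, 517, 518],
  [23, 524, 512, 513, 525, 514, 523, 515, 523, 524, 525],
  [349, 523, 512, 521, 513, 521, 524, 515, 516, 517, 525], [257], [289], [265], [4], [16], [128],
  [258], [256]] i

/-- the word of a number in base 128 -/
noncomputable def catA (L : ℕ) : ℕ → List ℕ :=
  Nat.rec (fun _ => []) (fun _ ih s => AW (Nat.mod s 128) ++ fr (Nat.div s 128) ih) L

/-- `s g = g' t` -/
noncomputable def eqW (s t : ℕ) (g g' : List ℕ) : Bool := fr s fun s => fr t fun t =>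
  band (band (Nat.blt s (128 ^ 13)) (Nat.blt t (128 ^ 13)))
    (chk1 (Ex.word (Ex.w (catA 13 s) * .w g * (Ex.w g' * .w (catA 13 t))⁻¹)))

/-- generators of `C(z, y)` and their conjugates under `w` -/
noncomputable def XL (b : Bool) (l : ℕ) : List ℕ := cond (Nat.blt l 8)
  (getN [] [Ws, invW true Ws, Wt, invW true Wt, cond b (Wu ++ T4 true) Wu, T4 true,
    cond b (cW true [72] (T4 true)) [257]] l) [cond b (aE (l - 8)) (l - 8)]

/-- words in these generators -/
noncomputable def xw (b : Bool) (l : List ℕ) : List ℕ := List.rec [] (fun i _ r => XL b i ++ r) l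

/-- the polycyclic generators as such words -/
noncomputable def XI (k : ℕ) : List ℕ := getN [] [[], [4], [0, 4, 1], [1, 3, 1, 4, 0, 2, 0], [5],
  [0, 5, 1], [1, 5, 0], [6], [0, 6, 1], [1, 6, 0], [12], [24], [136], [266], [264]] k

/-- the tables of the fusion maps -/
noncomputable def fsl (i k : ℕ) (b : Bool) : ℕ :=
  PC.slot (cond b (mU.fus.getD i (0, 0)).1 (mU.fus.getD i (0, 0)).2) 77 (2 ^ 77 - 1) k

/-- top words -/
noncomputable def tw (m n : ℕ) : List ℕ :=
  Nat.rec [] (fun n r => r ++ cond (tb m n) (AW (Nat.add n 2)) []) n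

theorem pc_chk : allR (fun x => allR (fun j => fr (Nat.add (Nat.mul x 128) (Nat.succ j)) fun v =>
    band (eqW (Pc.lhsW (Pc.rep 2) v) (Pc.rhsW mU.tb v) [] [])
      (Pc.digitsAll (fun d => Nat.blt (Nat.succ j) d && Nat.ble d 15) 13 (mU.tb v))) 0 x) 0 16 = true := by
  decide +kernel

theorem fw_chk : allR (fun k => band (allL (fun l => Nat.blt l 8 || band (Nat.blt l 520) (inE (l - 8)))
    (XI k)) (band (eqW (fsl 0 k true) 0 [] (xw true (XI k))) (eqW (fsl 0 k false) 0 []
      (xw false (XI k))))) 0 128 = true := by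
  decide +kernel

theorem fg_chk : allR (fun i => allR (fun k => fL (getN [] [[512, 521, 513, 522, 514, 523],
    [524, 512, 513, 514, 515, 517]] i) fun g => eqW (fsl (i + 1) k true) (fsl (i + 1) k false) g g)
    0 128) 0 2 = true := by
  decide +kernel

theorem qa_chk : allR (fun j => eqW (getN 0 [1928, 1934, 11, 1288, 12, 1160, 164865, 13] j) 0 []
    [2 ^ j]) 0 8 = true := by
  decide +kernel

theorem tw_chk : fL ((List.range 64).map fun m => fL (tw m 6) fun w => [evP w 0, evP w 1, evP w 3].foldl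
    (fun a b => 16 * a + b) 0) (fun l => decide l.Nodup) = true := by
  decide +kernel

universe u

variable {G : Type u} [Group G] {D : Dat G}

theorem ev_catA (D : Dat G) (L : ℕ) : ∀ s < 128 ^ L,
    D.ev (catA L s) = Pc.valF (fun i => D.ev (AW i)) s := by
  induction L with
  | zero => intro s hs; rw [show s = 0 by omega, Pc.valF_zero]; rfl
  | succ L ih =>
    intro s hs
    rw [Pc.valF_eq (g := fun i => D.ev (AW i)) rfl, ← ih _ (by rw [pow_succ] at hs; omega)]
    exact D.ev_append _ _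

theorem FrT.eqW_spec (F : FrT D) {s t : ℕ} {g g' : List ℕ} (h : eqW s t g g' = true) :
    Pc.valF (fun i => D.ev (AW i)) s * D.ev g = D.ev g' * Pc.valF (fun i => D.ev (AW i)) t := by
  rw [eqW, fr_eq, fr_eq] at h
  rw [← ev_catA D 13 s (Nat.blt_eq.mp (bl (bl h))), ← ev_catA D 13 t (Nat.blt_eq.mp (br (bl h)))]
  exact F.ex_eq _ _ (br h)

theorem FrT.eqW_zero (F : FrT D) {s : ℕ} {g : List ℕ} (h : eqW s 0 [] g = true) :
    Pc.valF (fun i => D.ev (AW i)) s = D.ev g := by
  simpa [D.ev_nil] using F.eqW_spec h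

theorem St.conj_xw [Finite G] {n w : G} (h : St D n w) {l : List ℕ}
    (hl : allL (fun l => Nat.blt l 8 || band (Nat.blt l 520) (inE (l - 8))) l = true) :
    D.ev (xw true l) * w = w * D.ev (xw false l) := by
  induction l with
  | nil => exact (one_mul w).trans (mul_one w).symm
  | cons i l ih =>
    show D.ev (XL true i ++ xw true l) * w = w * D.ev (XL false i ++ xw false l)
    rw [D.ev_append, D.ev_append, mul_assoc, ih (br hl), ← mul_assoc, ← mul_assoc,
      mul_left_inj, ← eq_mul_inv_iff_mul_eq, XL, XL]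
    have h1 : (Nat.blt i 8 || band (Nat.blt i 520) (inE (i - 8))) = true := bl hl
    cases e : Nat.blt i 8
    · rw [e, Bool.false_or] at h1
      have h2 : i - 8 < 512 := by have := Nat.blt_eq.mp (bl h1); omega
      have h3 : aE (i - 8) < 512 := by
        refine mq_lt _ ?_ (mq_lt _ (mq_lt _ ?_ ?_) (mq_lt _ ?_ ?_)) <;>
          exact Bool.rec (motive := fun b => cond b _ _ < _) (by norm_num) (by norm_num) _
      simp only [cond, D.ev_single h2, D.ev_single h3, h.wE h2 (br h1)]
    have := Nat.blt_eq.mp e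
    simp only [cond]
    interval_cases i
    · exact (mem_cent_iff_conj.1 h.ws).symm
    · exact (mem_cent_iff_conj.1 (mem_cent_symm ((h.ev_invW Ws).symm ▸
        inv_mem (mem_cent_symm h.ws)))).symm
    · exact (mem_cent_iff_conj.1 h.wt).symm
    · exact (mem_cent_iff_conj.1 (mem_cent_symm ((h.ev_invW Wt).symm ▸
        inv_mem (mem_cent_symm h.wt)))).symm
    · exact (D.ev_append _ _).trans h.wu.symm
    · exact h.we.symm
    · refine (h.ev_cW _ _).trans ?_
      show _ = w * D.ev [257] * w⁻¹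
      rw [D.ev_single (show 257 < 512 by norm_num), D.ev_single (show 72 < 512 by norm_num),
        ← h.w257, h.wi, ← mul_assoc, ← mul_assoc, h.w2, one_mul, mul_assoc _ w, h.w2, mul_one]
    · exact (mul_inv_eq_iff_eq_mul.2 ((mul_one w).trans (one_mul w).symm)).symm

theorem pcOn_card_le [Finite G] {a : ℕ → G} {tb : ℕ → ℕ} {p n : ℕ}
    (h : Pc.PcOn a tb p (fun i => 0 < i ∧ i ≤ n) ⊥) :
    Nat.card (closure (a '' {i | 0 < i ∧ i ≤ n})) ≤ p ^ n := by
  have key : ∀ k j, j + k = n →
      Nat.card ↥(closure (a '' {i | (0 < i ∧ i ≤ n) ∧ j < i}) ⊔ ⊥) ≤ p ^ k := by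
    intro k
    induction k with
    | zero =>
      intro j hj
      have : a '' {i | (0 < i ∧ i ≤ n) ∧ j < i} = ∅ := by
        rw [Set.image_eq_empty, Set.eq_empty_iff_forall_notMem]
        exact fun i hi => by have := hi.1.2; have := hi.2; omega
      simp [this]
    | succ k ih =>
      intro j hj
      have hs : 0 < j + 1 ∧ j + 1 ≤ n := ⟨by omega, by omega⟩
      rw [Pc.closure_step (S := fun i => 0 < i ∧ i ≤ n) a ⊥ hs, pow_succ']
      exact (PC.card_sup_zpowers_le _ _ h.ppos (h.norm hs).1 (h.norm hs).2).trans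
        (Nat.mul_le_mul_left _ (ih _ (by omega)))
  refine (card_le_of_le ?_).trans (key n 0 (zero_add n))
  exact le_sup_of_le_left (closure_mono (Set.image_mono fun i hi => ⟨hi, hi.1⟩))

theorem FrT.card_ge [Finite G] (F : FrT D) :
    2 ^ 15 ≤ Nat.card (closure ((fun i => D.ev (AW i)) '' {i | 0 < i ∧ i ≤ 15})) := by
  set H := closure ((fun i => D.ev (AW i)) '' {i | 0 < i ∧ i ≤ 15})
  have k : ∀ i, D.ev (AW i) ∈ H := fun i => by
    by_cases hi : 0 < i ∧ i ≤ 15
    · exact subset_closure ⟨i, hi, rfl⟩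
    rcases i with _ | i
    · exact one_mem _
    obtain ⟨j, rfl⟩ : ∃ j, i = j + 15 := ⟨i - 15, by omega⟩
    exact one_mem _
  have hq : ∀ c, D.io c ∈ H := iot_mem (D.io_256 ▸ D.ev_single (show 256 < 512 by norm_num) ▸ k 15)
    fun j hj => by
      have := F.eqW_zero (allR_zero_iff.1 qa_chk j hj)
      rw [D.ev_q hj, D.ev_nil, mul_one] at this
      exact this ▸ Pc.valF_mem H fun d _ => k d
  have ht : ∀ m n, D.ev (tw m n) ∈ H := fun m n => by
    induction n with
    | zero => exact one_mem _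
    | succ n ih =>
      refine (D.ev_append _ _).symm.subst (motive := (· ∈ H)) (mul_mem ih ?_)
      cases tb m n
      exacts [one_mem _, k _]
  have := Nat.card_le_card_of_injective (fun x : Fin 64 × Fin 512 =>
    (⟨D.io x.2 * D.ev (tw x.1 6), mul_mem (hq _) (ht _ _)⟩ : H)) fun x y e => by
    have e1 : D.io x.2 * D.ev (tw x.1 6) = D.io y.2 * D.ev (tw y.1 6) := congrArg Subtype.val e
    have e2 := congrArg D.p e1
    rw [F.p_mul _ (F.io_cent _) _ (F.ev_mem _), F.p_mul _ (F.io_cent _) _ (F.ev_mem _),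
      F.p_Q (F.io_mem _), F.p_Q (F.io_mem _), one_mul, one_mul, F.p_ev, F.p_ev] at e2
    have e3 : ∀ i : Fin 9, evP (tw x.1 6) i = evP (tw y.1 6) i := fun i => by
      rw [← permW_val, e2, permW_val]
    have e4 : x.1 = y.1 := Fin.ext (List.inj_on_of_nodup_map (of_decide_eq_true (fL_eq _ _ ▸ tw_chk :))
      (List.mem_range.2 x.1.2) (List.mem_range.2 y.1.2) (by
        simp only [fL_eq]; rw [show evP _ 0 = _ from e3 0, show evP _ 1 = _ from e3 1,
          show evP _ 3 = _ from e3 3]; rfl))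
    rw [e4, mul_left_inj] at e1
    exact Prod.ext e4 (Fin.ext (F.io_inj x.2.2 y.2.2 e1))
  simpa using this

theorem St.pBound_two [Finite G] {n w : G} (h : St D n w) (hN : Nat.card G = 90745943887872000) :
    PBound G 2 1 0 := by
  have F := h.frT
  have c : ∀ x j, 0 < j → j ≤ x → x ≤ 15 → band (eqW (Pc.lhsW (Pc.rep 2) (x * 128 + j))
      (Pc.rhsW mU.tb (x * 128 + j)) [] []) (Pc.digitsAll (fun d => Nat.blt j d && Nat.ble d 15) 13
        (mU.tb (x * 128 + j))) = true := fun x j h1 h2 h3 => by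
    obtain ⟨j, rfl⟩ : ∃ k, j = k + 1 := ⟨j - 1, by omega⟩
    exact allR_zero_iff.1 (allR_zero_iff.1 pc_chk x (by omega)) j (by omega)
  have R : Pc.PcRel (fun i => D.ev (AW i)) mU.tb 2 := Pc.PcRel.of_le (n := 15) rfl (by norm_num)
    (fun j hj => by obtain ⟨j, rfl⟩ : ∃ k, j = k + 16 := ⟨j - 16, by omega⟩; rfl) (by decide)
    (by decide +kernel) fun x j h1 h2 h3 _ =>
      (mul_one _).symm.trans ((F.eqW_spec (bl (c x j h1 h2 h3))).trans (one_mul _))
  have P : Pc.PcOn (fun i => D.ev (AW i)) mU.tb 2 (fun i => 0 < i ∧ i ≤ 15) ⊥ :=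
    ⟨rfl, by norm_num, fun _ h => by omega, by simp, fun x j h1 h2 h3 d hd => by
      have := Pc.digitsAll_spec (br (c x j h2.1 h3 h1.2)) d hd
      simp only [Bool.and_eq_true, Nat.blt_eq, Nat.ble_eq] at this
      omega, fun x j h1 h2 h3 => ⟨1, one_mem _, by
        rw [mul_one, R.rel x j h3 (by omega) (.inl h2.1)]⟩⟩
  refine mU.pBound (fun s => s.tri_sound mU_tri0 (Pc.Cert.base_sound mU_base)) mU_fin R
    (fun i hi => ?_) (P.ind Nat.prime_two F.card_ge) ?_
  · rcases i with _ | i
    · refine ⟨w, fun k hk => ?_⟩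
      have := allR_zero_iff.1 fw_chk k hk
      exact (congrArg (· * w) (F.eqW_zero (bl (br this)))).trans ((h.conj_xw (bl this)).trans
        (congrArg (w * ·) (F.eqW_zero (br (br this))).symm))
    · exact ⟨_, fun k hk => F.eqW_spec (fL_eq _ _ ▸ allR_zero_iff.1 (allR_zero_iff.1 fg_chk i
        (Nat.lt_of_succ_lt_succ hi)) k hk :)⟩
  · have := index_mul_card (closure ((fun i => D.ev (AW i)) '' {i | 0 < i ∧ i ≤ 15}))
    rw [hN, le_antisymm (pcOn_card_le P) F.card_ge] at this
    show Nat.Coprime (index (closure ((fun i => D.ev (AW i)) '' {i | 0 < i ∧ i ≤ 15}))) 2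
    rw [show index _ = 2769346432125 by omega]
    norm_num

end Cfsg.Lib.ThT
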